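import Mathlib

/-!
A combinatorial lemma on matrices of the shape `x i + y j` with few non-zero entries.
-/

set_option autoImplicit false

namespace Cfsg.Agent.Lib.Helper80

theorem matrix_trichotomy {α β : Type*} [DecidableEq α] [DecidableEq β] (A : Finset α) (B : Finset β)
    (x : α → ℂ) (y : β → ℂ) (hAB : A.card + 2 ≤ B.card)
    (hN : ((A ×ˢ B).filter (fun p => x p.1 + y p.2 ≠ 0)).card < 2 * A.card) :
    (∀ i ∈ A, ∀ j ∈ B, x i + y j = 0) ∨
    (∃ j₀ ∈ B, ∃ c : ℂ, ∀ i ∈ A, ∀ j ∈ B, x i + y j = if j = j₀ then c else 0) ∨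
    (∃ i₀ ∈ A, ∃ c : ℂ, ∀ i ∈ A, ∀ j ∈ B, x i + y j = if i = i₀ then c else 0) := by
  classical
  set NZ := (A ×ˢ B).filter (fun p => x p.1 + y p.2 ≠ 0) with hNZ
  by_cases hx : ∀ i ∈ A, ∀ i' ∈ A, x i = x i'
  · -- columns are constant
    by_cases h0 : ∀ i ∈ A, ∀ j ∈ B, x i + y j = 0
    · left; exact h0
    right; left
    push Not at h0
    obtain ⟨i₀, hi₀, j₀, hj₀, h0⟩ := h0
    refine ⟨j₀, hj₀, x i₀ + y j₀, fun i hi j hj => ?_⟩
    split_ifs with hj'
    · rw [hj', hx i hi i₀ hi₀]
    · by_contra hne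
      have hsub : A ×ˢ ({j₀, j} : Finset β) ⊆ NZ := by
        intro p hp
        rw [Finset.mem_product, Finset.mem_insert, Finset.mem_singleton] at hp
        rw [hNZ, Finset.mem_filter, Finset.mem_product]
        rcases hp.2 with h | h
        · refine ⟨⟨hp.1, h ▸ hj₀⟩, ?_⟩
          rw [h, hx p.1 hp.1 i₀ hi₀]; exact h0
        · refine ⟨⟨hp.1, h ▸ hj⟩, ?_⟩
          rw [h, hx p.1 hp.1 i hi]; exact hne
      have := Finset.card_le_card hsub
      rw [Finset.card_product, Finset.card_pair (Ne.symm hj')] at this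
      omega
  by_cases hy : ∀ j ∈ B, ∀ j' ∈ B, y j = y j'
  · by_cases h0 : ∀ i ∈ A, ∀ j ∈ B, x i + y j = 0
    · left; exact h0
    right; right
    push Not at h0
    obtain ⟨i₀, hi₀, j₀, hj₀, h0⟩ := h0
    refine ⟨i₀, hi₀, x i₀ + y j₀, fun i hi j hj => ?_⟩
    split_ifs with hi'
    · rw [hi', hy j hj j₀ hj₀]
    · by_contra hne
      have hsub : ({i₀, i} : Finset α) ×ˢ B ⊆ NZ := by
        intro p hp
        rw [Finset.mem_product, Finset.mem_insert, Finset.mem_singleton] at hp
        rw [hNZ, Finset.mem_filter, Finset.mem_product]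
        rcases hp.1 with h | h
        · refine ⟨⟨h ▸ hi₀, hp.2⟩, ?_⟩
          rw [h, hy p.2 hp.2 j₀ hj₀]; exact h0
        · refine ⟨⟨h ▸ hi, hp.2⟩, ?_⟩
          rw [h, hy p.2 hp.2 j hj]; exact hne
      have := Finset.card_le_card hsub
      rw [Finset.card_product, Finset.card_pair (Ne.symm hi')] at this
      omega
  exfalso
  push Not at hx hy
  obtain ⟨i₁, hi₁, i₂, hi₂, hi⟩ := hx
  obtain ⟨j₁, hj₁, j₂, hj₂, hj⟩ := hy
  set S₁ := B.image (fun j => ((if x i₁ + y j ≠ 0 then i₁ else i₂), j)) with hS₁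
  set S₂ := ((A.erase i₁).erase i₂).image (fun i => (i, (if x i + y j₁ ≠ 0 then j₁ else j₂))) with hS₂
  have c1 : S₁.card = B.card := by
    apply Finset.card_image_of_injective
    intro j j' h
    exact congrArg Prod.snd h
  have c2 : S₂.card = ((A.erase i₁).erase i₂).card := by
    apply Finset.card_image_of_injective
    intro j j' h
    exact congrArg Prod.fst h
  have c3 : ((A.erase i₁).erase i₂).card + 2 = A.card := by
    have hne : i₁ ≠ i₂ := fun h => hi (by rw [h])
    rw [Finset.card_erase_of_mem (Finset.mem_erase.2 ⟨hne.symm, hi₂⟩), Finset.card_erase_of_mem hi₁]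
    have : 2 ≤ A.card := by
      have := Finset.card_le_card (show ({i₁, i₂} : Finset α) ⊆ A by
        intro z hz
        rw [Finset.mem_insert, Finset.mem_singleton] at hz
        rcases hz with h | h <;> rw [h] <;> assumption)
      rwa [Finset.card_pair hne] at this
    omega
  have hd : Disjoint S₁ S₂ := by
    rw [Finset.disjoint_left]
    intro p hp1 hp2
    rw [hS₁, Finset.mem_image] at hp1
    rw [hS₂, Finset.mem_image] at hp2
    obtain ⟨j, -, rfl⟩ := hp1
    obtain ⟨i, hi', h⟩ := hp2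
    rw [Finset.mem_erase, Finset.mem_erase] at hi'
    have h1 := congrArg Prod.fst h
    simp only at h1
    split_ifs at h1 with h2
    · exact hi'.2.1 h1
    · exact hi'.1 h1
  have hsub : S₁ ∪ S₂ ⊆ NZ := by
    intro p hp
    rw [Finset.mem_union] at hp
    rw [hNZ, Finset.mem_filter, Finset.mem_product]
    rcases hp with hp | hp
    · rw [hS₁, Finset.mem_image] at hp
      obtain ⟨j, hjB, rfl⟩ := hp
      by_cases h : x i₁ + y j ≠ 0
      · simp only [if_pos h]
        exact ⟨⟨hi₁, hjB⟩, h⟩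
      · simp only [if_neg h]
        refine ⟨⟨hi₂, hjB⟩, fun h' => ?_⟩
        push Not at h
        apply hi
        linear_combination h - h'
    · rw [hS₂, Finset.mem_image] at hp
      obtain ⟨i, hiA, rfl⟩ := hp
      rw [Finset.mem_erase, Finset.mem_erase] at hiA
      by_cases h : x i + y j₁ ≠ 0
      · simp only [if_pos h]
        exact ⟨⟨hiA.2.2, hj₁⟩, h⟩
      · simp only [if_neg h]
        refine ⟨⟨hiA.2.2, hj₂⟩, fun h' => ?_⟩
        push Not at h
        apply hj
        linear_combination h - h'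
  have := Finset.card_le_card hsub
  rw [Finset.card_union_of_disjoint hd, c1, c2] at this
  omega

end Cfsg.Agent.Lib.Helper80
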